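import Cfsg.Agent.EvM.SqJ
import Cfsg.Agent.S2048

/-! In `2.Suz` and `6.Suz` the central involution is a square. -/

set_option autoImplicit false

namespace Cfsg.Agent.EvM

open Cfsg Subgroup
open scoped commutatorElement

section
variable {Γ Y : Type*} [Group Γ] [Group Y] (ξ : Γ →* Y) (hc : ξ.ker ≤ center Γ)

/-- the elements of order dividing three in a central kernel -/
def cub : Subgroup Γ where
  carrier := {c | c ∈ ξ.ker ∧ c ^ 3 = 1}
  one_mem' := ⟨one_mem _, one_pow _⟩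
  mul_mem' := fun {a b} ha hb => ⟨mul_mem ha.1 hb.1, by
    rw [Commute.mul_pow (mem_center_iff.1 (hc hb.1) a), ha.2, hb.2, one_mul]⟩
  inv_mem' := fun ha => ⟨inv_mem ha.1, by rw [inv_pow, ha.2, inv_one]⟩

instance cub_normal : (cub ξ hc).Normal := ⟨fun n hn g => by
  rwa [mem_center_iff.1 (hc hn.1) g, mul_inv_cancel_right]⟩

theorem dcov_quot (hp : Group.IsPerfect Γ) (hs : Function.Surjective ξ) {T : Γ} (hT : T ∈ ξ.ker)
    (T1 : T ≠ 1) (T2 : T * T = 1) (h3 : ∀ c ∈ ξ.ker, c ^ 3 = 1 ∨ c ^ 3 = T) :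
    TT.DCov (QuotientGroup.lift (cub ξ hc) ξ fun _ h => h.1) (T : Γ ⧸ cub ξ hc) := by
  have T3 : T ^ 3 = T := by rw [pow_succ, pow_two, T2, one_mul]
  refine ⟨Group.IsPerfect.ofSurjective (QuotientGroup.mk'_surjective _), fun y => ?_,
    mem_center_iff.2 fun g => ?_, fun c => T1 (T3.symm.trans ((QuotientGroup.eq_one_iff _).1 c).2),
    by rw [← QuotientGroup.mk_mul, T2, QuotientGroup.mk_one], fun g => ?_⟩
  · obtain ⟨g, rfl⟩ := hs y
    exact ⟨g, rfl⟩
  · obtain ⟨g, rfl⟩ := QuotientGroup.mk_surjective g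
    rw [← QuotientGroup.mk_mul, ← QuotientGroup.mk_mul, mem_center_iff.1 (hc hT) g]
  · obtain ⟨g, rfl⟩ := QuotientGroup.mk_surjective g
    refine ⟨fun c => (h3 g c).imp (fun d => (QuotientGroup.eq_one_iff _).2 ⟨c, d⟩) fun d =>
      QuotientGroup.eq.2 ⟨mul_mem (inv_mem c) hT, ?_⟩, ?_⟩
    · rw [Commute.mul_pow (mem_center_iff.1 (hc hT) _), inv_pow, d, T3, inv_mul_cancel]
    · rintro (c | c) <;> rw [c]
      exacts [map_one _, hT]

end

namespace Suzc

open Agent.Comp Agent.Comp.BN Agent.Comp.MB Spor Spor.CovSuz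

theorem satZ {q : Par} {L : ℕ → ℕ} {R : ℕ → q.Gr} (h : q.Mdl L R) {P : Pres} {n : ℕ}
    (hn : P.inv.length = n) {zs : List (List ℕ)} (hzs : ∀ U ∈ zs, ∀ a ∈ U, a = n)
    (hP : (∀ r ∈ P.rels, ∀ a ∈ r, a < n) ∧ ∀ k < n, P.I k < n)
    (hz : BN.allN (fun k => band (q.eqC L [k, n] [n, k]) (q.relZ L zs [P.I k, k])) n = true)
    (hr : BN.allL (q.relZ L zs) P.rels = true) : SatZ P (fun k => R (min k n)) (R n) := by
  have e1 : ∀ W : List ℕ, (∀ a ∈ W, a < n) → ev (fun k => R (min k n)) W = ev R W := fun W hW =>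
    congrArg List.prod (List.map_congr_left fun a ha => by rw [min_eq_left (hW a ha).le])
  have e2 : ∀ k, n ≤ k → R (min k n) ∈ Subgroup.zpowers (R n) := fun k hk => by
    rw [min_eq_right hk]; exact Subgroup.mem_zpowers _
  simp only [allN_eq, band_eq] at hz
  refine ⟨by simpa using mem_gen (fun k => R (min k n)) n, fun k => ?_,
    fun k hk => e2 k (hn ▸ hk), fun k => ?_, fun r hr' => ?_⟩
  · by_cases hk : k < n
    · simpa [min_eq_left hk.le] using h.eq (hz k hk).1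
    · rw [min_eq_right (not_lt.1 hk)]
  · by_cases hk : k < n
    · simpa [min_eq_left hk.le, min_eq_left (hP.2 k hk).le] using h.mem_zpowers hzs (hz k hk).2
    · rw [Pres.I, nth_of_le _ _ _ (hn ▸ not_lt.1 hk)]
      exact mul_mem (e2 k (not_lt.1 hk)) (e2 k (not_lt.1 hk))
  · rw [e1 r (hP.1 r hr')]
    exact h.mem_zpowers hzs ((allL_eq _ _).1 hr r hr')

theorem model_of {K : Type} [Group K] [Finite K] {R : ℕ → K}
    (hs : SatZ SuzC.P (fun k => R (min k 7)) (R 7)) (h1 : R 1 * R 0 ≠ R 0 * R 1)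
    (h2 : ⁅ev R [0, 2, 1, 0], ev R [1, 6, 0, 5]⁆ ^ 35 = R 7) (h3 : ev R [4, 4] = ev R [7, 7, 7])
    (h6 : orderOf (R 7) = 6) : ∃ (X : Type) (_ : Group X) (_ : Finite X) (ξ : X →* Spor.Suz) (a : X),
    Group.IsPerfect X ∧ Function.Surjective ξ ∧ ξ.ker ≤ center _ ∧ a * a ∈ ξ.ker ∧ a * a ≠ 1 ∧
    a * a * (a * a) = 1 ∧ ∀ c ∈ ξ.ker, c ^ 3 = 1 ∨ c ^ 3 = a * a := by
  have := SuzC.M.simple
  have sq4 : R 4 * R 4 = R 7 ^ 3 := by simpa [ev, pow_succ, mul_assoc] using h3
  obtain ⟨ξ, hs', hk, hc, -⟩ := hs.exists_hom SuzC.link.1 (i := 1) (j := 0) h1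
  have hp := (hs.exists_stem SuzC.link.1 (i := 1) (j := 0) h1 (U := [0, 2, 1, 0])
    (V := [1, 6, 0, 5]) h2).1
  have z6 : R 7 ^ 6 = 1 := h6 ▸ pow_orderOf_eq_one _
  refine ⟨_, _, inferInstance, ξ, ⟨R 4, mem_gen (fun k => R (min k 7)) 4⟩,
    Group.isPerfect_def.2 hp, hs', hc.ge, ?_, fun c => ?_, Subtype.ext ?_, fun c h => ?_⟩
  · rw [hk, mem_subgroupOf]
    change R 4 * R 4 ∈ _
    exact sq4 ▸ pow_mem (mem_zpowers _) 3
  · have : R 7 ^ 3 = 1 := sq4.symm.trans (congrArg Subtype.val c)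
    have := orderOf_dvd_of_pow_eq_one this
    rw [h6] at this
    omega
  · change R 4 * R 4 * (R 4 * R 4) = 1
    rw [sq4, ← pow_add, z6]
  · rw [hk, mem_subgroupOf] at h
    obtain ⟨n, hn⟩ := (mem_powers_iff_mem_zpowers.2 h :)
    simp only [Subtype.ext_iff]
    change (c : K) ^ 3 = 1 ∨ (c : K) ^ 3 = R 4 * R 4
    rw [sq4, ← hn]
    rcases Nat.even_or_odd' n with ⟨k, rfl | rfl⟩
    · left
      simp only []
      rw [← pow_mul, show 2 * k * 3 = 6 * k by ring, pow_mul, z6, one_pow]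
    · right
      simp only []
      rw [← pow_mul, show (2 * k + 1) * 3 = 6 * k + 3 by ring, pow_add, pow_mul, z6, one_pow,
        one_mul]

/-- The model `6.Suz`. -/
theorem model : ∃ (X : Type) (_ : Group X) (_ : Finite X) (ξ : X →* Spor.Suz) (a : X),
    Group.IsPerfect X ∧ Function.Surjective ξ ∧ ξ.ker ≤ center _ ∧ a * a ∈ ξ.ker ∧ a * a ≠ 1 ∧
    a * a * (a * a) = 1 ∧ ∀ c ∈ ξ.ker, c ^ 3 = 1 ∨ c ^ 3 = a * a :=
  model_of (R := R) (satZ mdl (n := 7) rfl
    (zs := [[], [7], [7, 7], [7, 7, 7], [7, 7, 7, 7], [7, 7, 7, 7, 7]]) (by decide)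
    (by decide +kernel) (by decide +kernel) (by decide +kernel))
    (mdl.not_comm (by decide +kernel))
    (mdl.comm_pow (Par.mdl_of_invC q_ok lenR invR).2.2 (by norm_num) (by decide +kernel))
    (mdl.eq (by decide +kernel)) ordz

end Suzc

/-- In an even cover of `Suz` the central involution is a square. -/
theorem exists_sq_Suz {A : Type*} [Group A] [Finite A] (hq : IsQuasisimple A)
    (he : Even (Nat.card (center A))) (hi : Spor.IsoSuz (A ⧸ center A)) :
    Nat.card (center A) ∣ 6 ∧ ∃ a : A, a * a ≠ 1 ∧ a * a ∈ center A ∧ a * a * (a * a) = 1 := by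
  obtain ⟨ε⟩ := hi
  have h6 := card_center_dvd hq S2048.result ε
  refine ⟨h6, ?_⟩
  obtain ⟨X, _, _, ξ, a, hp, hs, hc, h1, h2, h3, h4⟩ := Suzc.model
  let π : A →* Spor.Suz := ε.toMonoidHom.comp (QuotientGroup.mk' _)
  have hk : ∀ x, x ∈ π.ker ↔ x ∈ center A := fun x => by rw [MonoidHom.mem_ker]; simp [π]
  have hc' : π.ker ≤ center A := fun x => (hk x).1
  have : Fact (Nat.Prime 2) := ⟨Nat.prime_two⟩
  obtain ⟨t, ht⟩ := exists_prime_orderOf_dvd_card' (G := center A) 2 he.two_dvd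
  have t1 : t ≠ 1 := fun c => by simp [c] at ht
  have tt : t * t = 1 := by rw [← pow_two, ← ht, pow_orderOf_eq_one]
  have u : ∀ c : center A, c ^ 3 = 1 ∨ c ^ 3 = t := fun c => by
    by_contra hh
    push Not at hh
    have c6 : c ^ 3 * c ^ 3 = 1 := by
      obtain ⟨k, hk⟩ := h6
      rw [← pow_add, show 3 + 3 = 6 from rfl, hk, pow_mul, pow_card_eq_one', one_pow]
    have cm : Commute (c ^ 3) t := Subtype.ext (mem_center_iff.1 t.2 _)
    have hd : orderOf (c ^ 3) = 2 := orderOf_eq_prime (by rw [pow_two, c6]) hh.1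
    have h4 : 4 ∣ Nat.card (center A) := by
      let H : Subgroup (center A) := zpowers (c ^ 3) ⊔ zpowers t
      have hP : IsPGroup 2 H := by
        have : (zpowers t).Normal := ⟨fun n hn g => by
          rwa [show g * n = n * g from Subtype.ext (mem_center_iff.1 n.2 g), mul_inv_cancel_right]⟩
        exact IsPGroup.to_sup_of_normal_right (IsPGroup.of_card (n := 1) (by
          rw [Nat.card_zpowers, hd]; rfl)) (IsPGroup.of_card (n := 1) (by
          rw [Nat.card_zpowers, ht]; rfl))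
      obtain ⟨n, hn⟩ := IsPGroup.iff_card.1 hP
      have l : 2 < Nat.card H := by
        have : Fintype H := Fintype.ofFinite _
        rw [Nat.card_eq_fintype_card, Fintype.two_lt_card_iff]
        exact ⟨1, ⟨_, mem_sup_left (mem_zpowers _)⟩, ⟨_, mem_sup_right (mem_zpowers _)⟩,
          fun e => hh.1 (congrArg Subtype.val e).symm, fun e => t1 (congrArg Subtype.val e).symm,
          fun e => hh.2 (congrArg Subtype.val e)⟩
      refine dvd_trans ?_ (card_subgroup_dvd_card H)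
      rw [hn] at l ⊢
      have : 2 ≤ n := by
        by_contra c
        interval_cases n <;> omega
      exact pow_dvd_pow 2 this
    have := h4.trans h6
    omega
  have D := dcov_quot ξ hc hp hs h1 h2 h3 h4
  have D' := dcov_quot π hc' hq.1 (ε.surjective.comp (QuotientGroup.mk'_surjective _))
    ((hk _).2 t.2) (fun c => t1 (Subtype.ext c)) (congrArg Subtype.val tt) fun c h =>
      (u ⟨c, hc' h⟩).imp (congrArg Subtype.val) (congrArg Subtype.val)
  obtain ⟨ψ, hψ⟩ := TT.DCov.exists_equiv Spor.ModelSuz.equiv (e := 1)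
    (Spor.MultSuz.geq ▸ Spor.MultSuz.bounds (2, 1) (by simp)) (n := 1) le_rfl (σ := fun _ => _)
    (fun _ => D) (fun i j c => absurd (Subsingleton.elim i j) c) D'
  obtain ⟨b, hb⟩ := QuotientGroup.mk_surjective (ψ a)
  rw [QuotientGroup.mk_mul, map_mul, ← hb, ← QuotientGroup.mk_mul, QuotientGroup.eq] at hψ
  have e : (b * b) ^ 3 = t := by
    have := hψ.2
    rw [Commute.mul_pow (mem_center_iff.1 t.2 _), inv_pow, inv_mul_eq_one] at this
    rw [this, pow_succ, pow_two, show (t : A) * t = 1 from congrArg Subtype.val tt, one_mul]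
  have e' : b ^ 3 * b ^ 3 = t := by rw [← e, (Commute.refl b).mul_pow]
  exact ⟨b ^ 3, e' ▸ fun c => t1 (Subtype.ext c), e' ▸ t.2, e' ▸ congrArg Subtype.val tt⟩

end Cfsg.Agent.EvM
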